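import Mathlib
import Cfsg.Agent.Lib.McKay.Isaacs

/-! The Isaacs correspondence over an abelian section for groups of odd order: the theorem. -/

set_option autoImplicit false

namespace CfsgLib.McKay

open Cfsg CfsgLib.Char CfsgLib.CharDeep CfsgLib.ChDeg CfsgLib.Glaub CfsgLib.Coprime Subgroup
open scoped ComplexConjugate Pointwise commutatorElement

universe u

theorem central_of_over {G M : Type*} [Group G] [Group M] [Finite G] [Finite M] {κ : M →* G}
    {β : G → ℂ} {γ : M → ℂ} (hβ : IsIrrCharacter G β) (hγ : IsIrrCharacter M γ) (h : Over κ β γ)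
    {y : M} (hy : y ∈ center M) (hy' : κ y ∈ center G) : β (κ y) / β 1 = γ y / γ 1 := by
  have := Fintype.ofFinite M
  unfold Over at h
  rw [finsum_eq_sum_of_fintype] at h
  have h1 := Equiv.sum_comp (Equiv.mulLeft y) (fun m => β (κ m) * conj (γ m))
  simp only [Equiv.coe_mulLeft, map_mul, irr_mul_of_mem_center hβ hy',
    irr_mul_of_mem_center hγ hy] at h1
  have h2 : β (κ y) / β 1 * conj (γ y / γ 1) = 1 := by
    refine mul_right_cancel₀ h ?_
    rw [one_mul, Finset.mul_sum]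
    exact (Finset.sum_congr rfl fun m _ => by ring).trans h1
  have h3 : γ y / γ 1 * conj (γ y / γ 1) = 1 := by
    rw [Complex.mul_conj', norm_div, norm_irr_of_mem_center hγ hy,
      div_self (norm_ne_zero_iff.mpr (irr_one_ne_zero hγ))]
    simp
  exact mul_right_cancel₀ (right_ne_zero_of_mul_eq_one h2) (h2.trans h3.symm)

theorem card_comap_eq {Γ X : Type*} [Group Γ] [Group X] (π : Γ →* X) {B : Subgroup X}
    (hB : B ≤ π.range) : Nat.card (B.comap π) = Nat.card π.ker * Nat.card B := by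
  rw [← card_mul_relIndex_of_le (ker_le_comap π B), relIndex_ker, map_comap_eq_self hB]

theorem exists_acover_dvd {X : Type u} [Group X] [Finite X] {L H : Subgroup X} (hLH : L ≤ H)
    {ν : L → ℂ} (hν : IsIrrCharacter L ν) (hH : H ≤ stab L ν) :
    ∃ (Γ : Type u) (_ : Group Γ) (_ : Finite Γ) (a : ACover L H ν Γ),
      Nat.card a.π.ker ∣ Nat.card L * Nat.card L := by
  have := normal_subgroupOf_of_le_normalizer (hH.trans (stab_le L ν))
  have hν' := isIrr_comp_mulEquiv (subgroupOfEquivOfLe hLH) hν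
  obtain ⟨Γ, _, _, c, -, h⟩ := Triple.exists_cover (L.subgroupOf H) hν' (inv_cj_of_le_stab hLH hH)
    (deg_cast (isCharacter_of_isIrr hν')).symm
  obtain ⟨a, ha⟩ := acover_of_cover hLH c
  refine ⟨Γ, _, ‹_›, a, ?_⟩
  rw [← Nat.card_congr (subgroupOfEquivOfLe hLH).toEquiv, ha]
  exact h.trans (mul_dvd_mul (Triple.detOrder_dvd_card _) (deg_dvd_card hν'))

variable {X : Type u} [Group X] [Finite X] {G S K L H : Subgroup X} [Fintype H]

theorem isaacs_inv (hSG : S ≤ normalizer (G : Set X)) (hSK : S ≤ normalizer (K : Set X))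
    (hGK : G ≤ normalizer (K : Set X)) (hcop : (Nat.card S).Coprime (Nat.card G))
    (hs : Group.IsSolvable G) (hodd : Odd (Nat.card G)) (hLK : L ≤ K)
    (hKC : K ⊔ G ⊓ centralizer (S : Set X) = G) (hH : H = L ⊔ G ⊓ centralizer (S : Set X))
    (hab : ⁅K, K⁆ ≤ L) (hLH : L ≤ H) (hHG : H ≤ G) {φ : L → ℂ} (hφ : IsIrrCharacter L φ)
    (hGφ : G ≤ stab L φ) (hSφ : S ≤ stab L φ) :
    RelBij (fun χ : G → ℂ => IsIrrCharacter G χ ∧ S ≤ stab G χ ∧
        Over (inclusion (hLH.trans hHG)) χ φ)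
      (fun ψ : H → ℂ => IsIrrCharacter H ψ ∧ S ≤ stab H ψ ∧ Over (inclusion hLH) ψ φ)
      (fun χ ψ => ¬ 2 ∣ mult (inclusion hHG) χ ψ) := by
  have hLG := hLH.trans hHG
  have hKG : K ≤ G := hKC ▸ le_sup_left
  obtain ⟨Γ, _, _, a, ha⟩ := exists_acover_dvd (hLG.trans (le_sup_left (b := S))) hφ
    (sup_le hGφ hSφ)
  have := a.normal
  have hG : G ≤ a.π.range := le_sup_left.trans a.range.ge
  have hS : S ≤ a.π.range := le_sup_right.trans a.range.ge
  have hL := card_dvd_of_le hLG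
  have hc1 : (Nat.card S).Coprime (Nat.card a.π.ker) :=
    (Nat.Coprime.mul_right hcop hcop).coprime_dvd_right (ha.trans (mul_dvd_mul hL hL))
  obtain ⟨S', -, -, h1, h2⟩ := exists_complement_of_le_normalizer (ker_le_comap a.π S)
    (le_normalizer_of_normal) (by rw [relIndex_ker, map_comap_eq_self hS]; exact hc1.symm)
  rw [relIndex_ker, map_comap_eq_self hS] at h2
  have hS' : S'.map a.π = S := by
    have h3 := map_comap_eq_self hS
    rwa [← h1, Subgroup.map_sup, map_ker_self, bot_sup_eq] at h3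
  have hn : ∀ {Y : Subgroup X}, S ≤ normalizer (Y : Set X) → S' ≤ normalizer (Y.comap a.π : Set Γ) :=
    fun h => (map_le_iff_le_comap.mp (hS'.le.trans h)).trans (le_normalizer_comap _)
  have hm : ∀ {Y Z : Subgroup Γ}, Z ≤ normalizer (Y : Set Γ) → Z.map (QuotientGroup.mk' a.R) ≤
      normalizer (Y.map (QuotientGroup.mk' a.R) : Set (Γ ⧸ a.R)) :=
    fun h => (map_mono h).trans (le_normalizer_map _)
  have hc2 : (Nat.card S').Coprime (Nat.card (G.comap a.π)) := by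
    rw [h2, card_comap_eq _ hG]; exact hc1.mul_right hcop
  have hs' : Group.IsSolvable (G.comap a.π) := by
    have : IsMulCommutative a.π.ker := ⟨⟨fun x y => Subtype.ext
      (mem_center_iff.mp (a.central y.2) x)⟩⟩
    have := isSolvable_of_isMulCommutative a.π.ker
    exact Group.isSolvable_of_ker_le_range (inclusion (ker_le_comap a.π G)) (a.π.subgroupComap G)
      fun x hx => ⟨⟨x, congrArg Subtype.val hx⟩, rfl⟩
  have hs2 : ∀ N : Subgroup Γ, Group.IsSolvable (G.comap a.π ⊓ N : Subgroup Γ) := fun N =>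
    Group.isSolvable_of_isSolvable_injective (inclusion_injective (inf_le_left (b := N)))
  have hz : a.π.ker ≤ G.comap a.π ⊓ centralizer (S' : Set Γ) :=
    le_inf (ker_le_comap _ _) (a.central.trans (center_le_centralizer _))
  have hC : (G ⊓ centralizer (S : Set X)).comap a.π = G.comap a.π ⊓ centralizer (S' : Set Γ) := by
    have h3 := map_inf_centralizer a.π (hn hSG) (coprime_of_le hc2 le_rfl inf_le_left)
      (Or.inr (hs2 _))
    rw [map_comap_eq_self hG, hS'] at h3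
    rw [← h3, comap_map_eq_self hz]
  let q := QuotientGroup.mk' a.R
  have hq : q.ker = a.R := QuotientGroup.ker_mk' _
  have hqL : (L.comap a.π).map q = a.π.ker.map q := by
    rw [a.sup, Subgroup.map_sup, (Subgroup.map_eq_bot_iff _).mpr hq.ge, sup_bot_eq]
  have hqc : a.π.ker.map q ≤ center _ := by
    rintro _ ⟨z, hz, rfl⟩
    refine mem_center_iff.mpr fun g => ?_
    obtain ⟨g, rfl⟩ := QuotientGroup.mk'_surjective a.R g
    rw [← map_mul, ← map_mul, mem_center_iff.mp (a.central hz)]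
  have hC' : (H.comap a.π).map q =
      (G.comap a.π).map q ⊓ centralizer (S'.map q : Set (Γ ⧸ a.R)) := by
    rw [← map_inf_centralizer q (hn hSG) (coprime_of_le hc2 le_rfl inf_le_left) (Or.inr (hs2 _)),
      hH, ← comap_sup_eq_of_le_range _ (hLG.trans hG) (inf_le_left.trans hG), Subgroup.map_sup,
      hqL, hC, sup_eq_right.mpr (map_mono hz)]
  have hK' : ⁅(K.comap a.π).map q, (K.comap a.π).map q⁆ ≤ center _ := by
    rw [← map_commutator]
    refine (map_mono (map_le_iff_le_comap.mp ?_)).trans (hqL.le.trans hqc)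
    rw [map_commutator]
    exact (commutator_mono (map_comap_le _ _) (map_comap_le _ _)).trans hab
  have := Fintype.ofFinite ((H.comap a.π).map q)
  have hd := card_map_dvd (G.comap a.π) q
  obtain ⟨e, he⟩ := isaacs_central (G := (G.comap a.π).map q) (S := S'.map q)
    (K := (K.comap a.π).map q) (C := (H.comap a.π).map q)
    (hm (hn hSG)) (hm (hn hSK)) (hm ((comap_mono hGK).trans (le_normalizer_comap _)))
    ((hc2.coprime_dvd_left (card_map_dvd _ q)).coprime_dvd_right hd)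
    (Group.isSolvable_of_surjective (q.subgroupMap_surjective _))
    (Odd.of_dvd_nat (by
      rw [card_comap_eq _ hG]
      exact (Odd.of_dvd_nat (hodd.mul hodd) (ha.trans (mul_dvd_mul hL hL))).mul hodd) hd)
    hC' (map_mono (comap_mono hHG)) (by
      rw [← Subgroup.map_sup, comap_sup_eq_of_le_range _ (hKG.trans hG) (hHG.trans hG), hH,
        ← sup_assoc, sup_eq_left.mpr hLK, hKC])
    (hK'.trans (center_le_centralizer _)) (hK'.trans (center_le_centralizer _))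
  have hSH : S ≤ normalizer (H : Set X) := hH ▸ le_normalizer_sup (hSφ.trans (stab_le _ _))
    ((le_centralizer_iff.mp inf_le_right).trans (centralizer_le_normalizer _))
  have key : ∀ (β : IrrCharacter ((G.comap a.π).map q)) (γ : IrrCharacter ((H.comap a.π).map q)),
      ¬ 2 ∣ mult (inclusion (map_mono (comap_mono hHG))) β.1 γ.1 → ∀ (z : L.comap a.π)
        (y : (H.comap a.π).map q), a.π z = 1 → q z = y →
        (a.μ z * β.1 (inclusion (map_mono (comap_mono hHG)) y) = β.1 1 ↔ a.μ z * γ.1 y = γ.1 1) :=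
    fun β γ h z y h3 h4 => by
      have h5 : (y : Γ ⧸ a.R) ∈ center _ := hqc ⟨z, h3, h4⟩
      have h6 := central_of_over β.2 γ.2 ((over_iff_mult (irr_isCharacter β)
        (irr_isCharacter γ)).mpr fun h0 => h (h0 ▸ dvd_zero 2)) (y := y)
        (mem_center_iff.mpr fun g => Subtype.ext (mem_center_iff.mp h5 g))
        (mem_center_iff.mpr fun g => Subtype.ext (mem_center_iff.mp h5 g))
      rw [← div_eq_one_iff_eq (irr_one_ne_zero β.2), ← div_eq_one_iff_eq (irr_one_ne_zero γ.2),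
        mul_div_assoc, mul_div_assoc, h6]
  refine RelBij.transfer (r' := fun β γ => ¬ 2 ∣ mult (inclusion (map_mono (comap_mono hHG))) β γ)
    ⟨fun β hβ => ?_, fun γ hγ => ?_⟩ (a.corr hφ hq hLG le_sup_left hS' hSG)
    (a.corr hφ hq hLH (hHG.trans le_sup_left) hS' hSH)
    (fun χ β ψ γ _ _ _ _ h h' => by rw [a.mult_eq hφ hq hLH hHG le_sup_left h h'])
  · have h3 := (he ⟨⟨β, hβ.1⟩, hβ.2.1⟩ _).mp rfl
    refine ⟨(e ⟨⟨β, hβ.1⟩, hβ.2.1⟩).1, ⟨⟨(e _).2, fun s hs => ?_, fun z y h4 h5 =>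
      (key _ _ h3 z y h4 h5).mp (hβ.2.2 z _ h4 h5)⟩, h3⟩, fun γ hγ =>
      congrArg Subtype.val ((he ⟨⟨β, hβ.1⟩, hβ.2.1⟩ ⟨γ, hγ.1.1⟩).mpr hγ.2)⟩
    have h4 : s ∈ centralizer ((H.comap a.π).map q : Set (Γ ⧸ a.R)) :=
      le_centralizer_iff.mp (hC'.le.trans inf_le_right) hs
    exact ⟨centralizer_le_normalizer _ h4, fun m m' e => congrArg _ (Subtype.ext (by
      rw [e, ← h4 m m.2, mul_inv_cancel_right]))⟩
  · have h3 := (he (e.symm ⟨γ, hγ.1⟩) ⟨γ, hγ.1⟩).mp (e.apply_symm_apply _).symm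
    refine ⟨(e.symm ⟨γ, hγ.1⟩).1.1, ⟨⟨(e.symm _).1.2, (e.symm _).2, fun z y h4 h5 =>
      (key _ _ h3 z ⟨y, z, hLH z.2, h5⟩ h4 h5).mpr (hγ.2.2 z _ h4 h5)⟩, h3⟩, fun β hβ => ?_⟩
    rw [(he ⟨⟨β, hβ.1.1⟩, hβ.1.2.1⟩ ⟨γ, hγ.1⟩).mpr hβ.2, e.symm_apply_apply]

omit [Fintype H] in
theorem exists_cA_eq_centralizer (hSG : S ≤ normalizer (G : Set X)) (hLG : L ≤ G)
    (hGL : G ≤ normalizer (L : Set X)) (hcop : (Nat.card S).Coprime (Nat.card G))
    (hs : Group.IsSolvable G) {χ : G → ℂ} (hχ : IsIrrCharacter G χ) {φ φ' : L → ℂ}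
    (hφ : IsIrrCharacter L φ) (hφ' : IsIrrCharacter L φ') (h : Over (inclusion hLG) χ φ)
    (h' : Over (inclusion hLG) χ φ') (hSφ : S ≤ stab L φ) (hSφ' : S ≤ stab L φ') :
    ∃ (g : X) (hg : g ∈ G ⊓ centralizer (S : Set X)), cA L (hGL hg.1) φ = φ' := by
  obtain ⟨g, hg, e⟩ := exists_cA_eq hLG hGL hχ hφ hφ' h h'
  have e' : cA L (inv_mem (hGL hg)) φ' = φ := by
    rw [← e, cA_cA]
    exact funext fun m => congrArg φ (Subtype.ext (by simp))
  obtain ⟨u, hu, h1⟩ := exists_mul_mem_centralizer' (U := G ⊓ stab L φ)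
    (Coprime.le_normalizer_inf hSG (hSφ.trans le_normalizer)) (coprime_of_le hcop le_rfl inf_le_left)
    (Or.inr (Group.isSolvable_of_isSolvable_injective (inclusion_injective inf_le_left))) g
    (fun s hs => ⟨G.mul_mem (conj_mem_of_le_normalizer hSG hs hg) (G.inv_mem hg), by
      have h2 : g * s⁻¹ * g⁻¹ ∈ stab L φ := e' ▸ mem_stab_cA (inv_mem (hGL hg)) (by
        simpa [mul_assoc] using hSφ' hs)
      simpa [mul_assoc] using mul_mem (hSφ hs) h2⟩)
  refine ⟨u * g, ⟨mul_mem hu.1 hg, h1⟩, ?_⟩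
  rw [← cA_cA (hGL hg) (hGL hu.1), (cA_eq_self_iff _).mpr hu.2, e]

variable (hSG : S ≤ normalizer (G : Set X)) (hSK : S ≤ normalizer (K : Set X))
  (hGK : G ≤ normalizer (K : Set X)) (hGL : G ≤ normalizer (L : Set X))
  (hcop : (Nat.card S).Coprime (Nat.card G)) (hs : Group.IsSolvable G) (hodd : Odd (Nat.card G))
  (hLK : L ≤ K) (hKC : K ⊔ G ⊓ centralizer (S : Set X) = G)
  (hH : H = L ⊔ G ⊓ centralizer (S : Set X)) (hab : ⁅K, K⁆ ≤ L) (hHG : H ≤ G)

include hSG hSK hGK hGL hcop hs hodd hLK hKC hH hab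

theorem isaacs_over (hLH : L ≤ H) {φ : L → ℂ} (hφ : IsIrrCharacter L φ) (hSφ : S ≤ stab L φ) :
    RelBij (fun χ : G → ℂ => IsIrrCharacter G χ ∧ S ≤ stab G χ ∧
        Over (inclusion (hLH.trans hHG)) χ φ)
      (fun ψ : H → ℂ => IsIrrCharacter H ψ ∧ S ≤ stab H ψ ∧ Over (inclusion hLH) ψ φ)
      (fun χ ψ => ¬ 2 ∣ mult (inclusion hHG) χ ψ) := by
  have hLφ := le_stab (isClassFunction_of_isIrr hφ)
  obtain ⟨T, hT⟩ : ∃ T, T = G ⊓ stab L φ := ⟨_, rfl⟩
  obtain ⟨U, hU⟩ : ∃ U, U = H ⊓ stab L φ := ⟨_, rfl⟩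
  have := Fintype.ofFinite U
  have hTG : T ≤ G := hT ▸ inf_le_left
  have hLT : L ≤ T := hT ▸ le_inf (hLH.trans hHG) hLφ
  have hUH : U ≤ H := hU ▸ inf_le_left
  have hLU : L ≤ U := hU ▸ le_inf hLH hLφ
  have hUT : U ≤ T := hT ▸ hU ▸ inf_le_inf_right _ hHG
  have hST : S ≤ normalizer (T : Set X) :=
    hT ▸ Coprime.le_normalizer_inf hSG (hSφ.trans le_normalizer)
  have hSH : S ≤ normalizer (H : Set X) := hH ▸ le_normalizer_sup (hSφ.trans (stab_le _ _))
    ((le_centralizer_iff.mp inf_le_right).trans (centralizer_le_normalizer _))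
  have hsT : ∀ N : Subgroup X, N ≤ G → Group.IsSolvable N := fun N h =>
    Group.isSolvable_of_isSolvable_injective (inclusion_injective h)
  have h1 : ⁅T, S⁆ ≤ K ⊓ T := by
    refine le_inf (commutator_le.mpr fun g hg s hs => ?_) (commutator_le_of_le_normalizer hST)
    obtain ⟨k, hk, c, hc, rfl⟩ := (mem_sup_iff_of_le_normalizer (inf_le_left.trans hGK)).mp
      (hKC.ge (hTG hg))
    have h2 := mul_mem hk (conj_mem_of_le_normalizer hSK hs (inv_mem hk))
    rwa [show k * (s * k⁻¹ * s⁻¹) = ⁅k * c, s⁆ by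
      rw [commutatorElement_def, mul_assoc k c, ← hc.2 s hs]; group] at h2
  refine RelBij.transfer (isaacs_inv (K := K ⊓ T) hST (Coprime.le_normalizer_inf hSK hST)
    (Coprime.le_normalizer_inf (hTG.trans hGK) le_normalizer) (coprime_of_le hcop le_rfl hTG)
    (hsT _ hTG) (hodd.of_dvd_nat (card_dvd_of_le hTG)) (le_inf hLK hLT)
    (sup_centralizer_eq_of_commutator_le inf_le_right h1
      (coprime_of_le hcop le_rfl (inf_le_right.trans hTG)) (Or.inr (hsT _ (inf_le_right.trans hTG))))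
    (by rw [hU, hH, sup_inf_dedekind (inf_le_left.trans hGL) hLφ, hT, inf_right_comm])
    ((commutator_mono inf_le_left inf_le_left).trans hab) hLU hUT hφ (hT ▸ inf_le_right) hSφ)
    (cliffA_corr hLT hTG hGL hφ hT hSG hSφ) (cliffA_corr hLU hUH (hHG.trans hGL) hφ hU hSH hSφ)
    (fun χ η ψ ζ hχ hη hψ hζ h h' => by
      rw [cliffA_mult_eq hLT hTG hGL hφ hT hLU hUH hHG hUT hU hχ.1 hη.1 hη.2.2 h hψ.1 hζ.1
        hζ.2.2 h'])

theorem isaacs_section (hSL : S ≤ normalizer (L : Set X)) :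
    RelBij (fun χ : G → ℂ => IsIrrCharacter G χ ∧ S ≤ stab G χ)
      (fun ψ : H → ℂ => IsIrrCharacter H ψ ∧ S ≤ stab H ψ)
      (fun χ ψ => ¬ 2 ∣ mult (inclusion hHG) χ ψ) := by
  have hLH : L ≤ H := hH ▸ le_sup_left
  have hSH : S ≤ normalizer (H : Set X) := hH ▸ le_normalizer_sup hSL
    ((le_centralizer_iff.mp inf_le_right).trans (centralizer_le_normalizer _))
  have h0 := fun {ψ : H → ℂ} (hψ : IsIrrCharacter H ψ ∧ S ≤ stab H ψ) =>
    exists_inv_under_coprime hSH hSL hLH (hHG.trans hGL) (coprime_of_le hcop le_rfl hHG)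
      (Group.isSolvable_of_isSolvable_injective (inclusion_injective hHG)) hψ.1 hψ.2
  have h1 : ∀ {χ : G → ℂ} {ψ : H → ℂ} {φ : L → ℂ}, IsIrrCharacter G χ → IsIrrCharacter H ψ →
      IsIrrCharacter L φ → ¬ 2 ∣ mult (inclusion hHG) χ ψ → Over (inclusion hLH) ψ φ →
      Over (inclusion (hLH.trans hHG)) χ φ := fun hχ hψ hφ h h' =>
    Over.trans (fun _ => rfl) (isCharacter_of_isIrr hχ) hψ (isCharacter_of_isIrr hφ)
      ((over_iff_mult (isCharacter_of_isIrr hχ) (isCharacter_of_isIrr hψ)).mpr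
        fun h0 => h (h0 ▸ dvd_zero 2)) h'
  refine ⟨fun χ hχ => ?_, fun ψ hψ => ?_⟩
  · obtain ⟨φ, hφ, h2, h3⟩ := exists_inv_under_coprime hSG hSL (hLH.trans hHG) hGL hcop hs hχ.1 hχ.2
    obtain ⟨ψ, ⟨hψ, h4⟩, h5⟩ := (isaacs_over hSG hSK hGK hGL hcop hs hodd hLK hKC hH hab hHG hLH
      hφ h2).1 χ ⟨hχ.1, hχ.2, h3⟩
    refine ⟨ψ, ⟨⟨hψ.1, hψ.2.1⟩, h4⟩, fun ψ' hψ' => h5 ψ' ⟨⟨hψ'.1.1, hψ'.1.2, ?_⟩, hψ'.2⟩⟩
    obtain ⟨φ', hφ', h6, h7⟩ := h0 hψ'.1
    obtain ⟨g, hg, rfl⟩ := exists_cA_eq_centralizer hSG (hLH.trans hHG) hGL hcop hs hχ.1 hφ hφ' h3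
      (h1 hχ.1 hψ'.1.1 hφ' hψ'.2 h7) h2 h6
    exact (over_cA hLH (hH ▸ mem_sup_right hg) _ (isClassFunction_of_isIrr hψ'.1.1)).mp h7
  · obtain ⟨φ, hφ, h2, h3⟩ := h0 hψ
    obtain ⟨χ, ⟨hχ, h4⟩, h5⟩ := (isaacs_over hSG hSK hGK hGL hcop hs hodd hLK hKC hH hab hHG hLH
      hφ h2).2 ψ ⟨hψ.1, hψ.2, h3⟩
    exact ⟨χ, ⟨⟨hχ.1, hχ.2.1⟩, h4⟩, fun χ' hχ' =>
      h5 χ' ⟨⟨hχ'.1.1, hχ'.1.2, h1 hχ'.1.1 hψ.1 hφ hχ'.2 h3⟩, hχ'.2⟩⟩

end CfsgLib.McKay
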